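import Cfsg.Agent.H169.RM.ChkF

/-!
# S3849, P10: kernel checks for `ChkF` (helper408)

* `LD` : the data of a line: the line, the functionals `μ`, the mask of the good roots, the brackets;
* `chkLine` : the check of a line; `reps s m` : the lines of `𝔽_s ^ m`;
* `chkF_of` : `ChkF` from the checks of all lines.
-/

set_option autoImplicit false

namespace Cfsg.Agent.H408.RM

open Cfsg Cfsg.Lie Cfsg.Lie.ChevalleyDatum Cfsg.Agent.ChevalleyStructure Cfsg.Agent.Nodes.RGDChev
open Cfsg.Agent.H167.RV (crd dotL dotL_eq crd_eq)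
open Cfsg.Agent.H169.RM

/-- the digits mod `s` of the values of the functionals -/
def dg (s : ℕ) (N : List (List ℤ)) (x : List ℤ) : List ℕ := N.map fun n => (dotL n x % (s : ℤ)).toNat

/-- `x + c P` mod `s` -/
def shL (s c : ℕ) (P x : List ℕ) : List ℕ := List.zipWith (fun a p => (a + c * p) % s) x P

/-- the code of a list of digits -/
def cdL (s : ℕ) : List ℕ → ℕ
  | [] => 0
  | a :: L => a + s * cdL s L

/-- the data of a line -/
structure LD where
  P : List ℕ
  mu : List (List ℤ)
  G : ℕ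
  ct : List (ℕ × ℕ × ℕ)

/-- on the line -/
def onB (s : ℕ) (P x : List ℕ) : Bool :=
  (List.range s).any fun c => Nat.beq (cdL s x) (cdL s (P.map fun p => (c * p) % s))

def muV (mu : List (List ℤ)) (x : List ℤ) : List ℤ := mu.map fun u => dotL u x

def stpB (D : ChevalleyDatum) (a b c : ℕ) : Bool :=
  !(Nat.beq b a) && !(Nat.beq b (D.neg a)) &&
    (decide (D.chainCoeff a b c = [(1, 1)]) || decide (D.chainCoeff a b c = [(1, -1)]))

/-- the check of a root: good roots -/
def chkG (s : ℕ) (mem : ℕ → List ℤ → Bool) (P : List ℕ) (x : List ℕ) (u : List ℤ) : Bool :=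
  !(onB s P x) && (List.range s).any fun c => !(mem (cdL s (shL s c P x)) u)

/-- the check of a line; `T` the digits of the roots, `R` the coordinates of the roots -/
def chkLine (D : ChevalleyDatum) (s : ℕ) (memF : List (ℕ × List ℤ) → ℕ → List ℤ → Bool)
    (T : List (List ℕ × List ℤ)) (L : LD) : Bool :=
  let K : List (List ℕ × List ℤ) := T.map fun y => (y.1, muV L.mu y.2)
  let K2 : List (ℕ × List ℤ) := K.map fun y => (cdL s y.1, y.2)
  K2.all (fun y => memF K2 y.1 y.2) &&
  (K.zipIdx).all (fun y => (!(Nat.testBit L.G y.2) || chkG s (memF K2) L.P y.1.1 y.1.2) &&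
      (!(onB s L.P y.1.1) || y.1.2.all (fun z => decide (z = 0))) &&
      (Nat.testBit L.G y.2 || L.ct.any fun t => Nat.beq t.1 y.2 && (Nat.testBit L.G t.2.1 && Nat.testBit L.G t.2.2) &&
        (Nat.blt t.2.1 D.nroots && Nat.blt t.2.2 D.nroots) && stpB D t.2.1 t.2.2 y.2))

/-- all lists of digits -/
def allD (s : ℕ) : ℕ → List (List ℕ)
  | 0 => [[]]
  | m + 1 => (List.range s).flatMap fun a => (allD s m).map fun L => a :: L

/-- the lines -/
def reps (s : ℕ) : ℕ → List (List ℕ)
  | 0 => []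
  | m + 1 => ((allD s m).map fun L => 1 :: L) ++ (reps s m).map fun P => 0 :: P

theorem mem_allD {s : ℕ} : ∀ (L : List ℕ), (∀ x ∈ L, x < s) → L ∈ allD s L.length
  | [], _ => List.mem_singleton.2 rfl
  | x :: L, h => by
    have h1 := mem_allD L fun y hy => h y (List.mem_cons_of_mem _ hy)
    exact List.mem_flatMap.2 ⟨x, List.mem_range.2 (h x List.mem_cons_self), List.mem_map.2 ⟨L, h1, rfl⟩⟩

theorem exists_rep {s : ℕ} (hs : s.Prime) : ∀ (L : List ℤ), (∃ x ∈ L, ¬ (s : ℤ) ∣ x) →
    ∃ P ∈ reps s L.length, ∃ u v : ℤ, (s : ℤ) ∣ u * v - 1 ∧ List.Forall₂ (fun (p : ℕ) (x : ℤ) => (s : ℤ) ∣ (p : ℤ) - u * x) P L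
  | [], h => by
    obtain ⟨x, hx, -⟩ := h
    exact absurd hx (List.not_mem_nil)
  | x :: L, h => by
    by_cases hx : (s : ℤ) ∣ x
    · obtain ⟨P, hP, u, v, huv, h2⟩ := exists_rep hs L (by
        obtain ⟨y, hy, hy2⟩ := h
        rcases List.mem_cons.1 hy with rfl | hy
        · exact absurd hx hy2
        · exact ⟨y, hy, hy2⟩)
      refine ⟨0 :: P, List.mem_append_right _ (List.mem_map.2 ⟨P, hP, rfl⟩), u, v, huv, List.Forall₂.cons ?_ h2⟩
      obtain ⟨c, rfl⟩ := hx
      exact ⟨-(u * c), by push_cast; ring⟩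
    · have hsp : Prime (s : ℤ) := Nat.prime_iff_prime_int.1 hs
      have hcop : IsCoprime x (s : ℤ) := by
        refine ((Prime.coprime_iff_not_dvd hsp).2 hx).symm
      obtain ⟨u, w, huw⟩ := hcop
      have hs0 : (0 : ℤ) < s := by exact_mod_cast hs.pos
      refine ⟨1 :: L.map (fun y => ((u * y) % (s : ℤ)).toNat), List.mem_append_left _ (List.mem_map.2 ⟨_, ?_, rfl⟩), u, x,
        ⟨-w, by linear_combination huw⟩, List.Forall₂.cons ⟨w, by push_cast; linear_combination -huw⟩ ?_⟩
      · have := mem_allD (s := s) (L.map (fun y => ((u * y) % (s : ℤ)).toNat)) (by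
          intro z hz
          obtain ⟨y, -, rfl⟩ := List.mem_map.1 hz
          have h1 := Int.emod_lt_of_pos (u * y) hs0
          have h2 := Int.emod_nonneg (u * y) hs0.ne'
          omega)
        rwa [List.length_map] at this
      · rw [List.forall₂_map_left_iff]
        refine List.forall₂_same.2 fun y _ => ?_
        have h2 := Int.emod_nonneg (u * y) hs0.ne'
        rw [Int.toNat_of_nonneg h2]
        exact (Int.modEq_iff_dvd).1 ((Int.mod_modEq (u * y) s).symm)

theorem zipWith_ofFn {α β γ : Type*} {m : ℕ} (f : α → β → γ) (a : Fin m → α) (b : Fin m → β) :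
    List.zipWith f (List.ofFn a) (List.ofFn b) = List.ofFn fun j => f (a j) (b j) := by
  apply List.ext_getElem
  · simp
  · intro i h1 h2
    simp

theorem digit_eq {s : ℕ} (hs : 0 < s) {x y : ℤ} {c p : ℕ} (h : (s : ℤ) ∣ y - x - c * p) :
    (y % (s : ℤ)).toNat = ((x % (s : ℤ)).toNat + c * p) % s := by
  have hs0 : (0 : ℤ) < s := by exact_mod_cast hs
  have h1 := Int.emod_nonneg x hs0.ne'
  have h2 := Int.emod_nonneg y hs0.ne'
  zify
  rw [Int.toNat_of_nonneg h2, Int.toNat_of_nonneg h1]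
  have h3 : (x + c * p) % (s : ℤ) = y % (s : ℤ) := (Int.modEq_iff_dvd).2 (by
    have e : y - (x + c * p) = y - x - c * p := by ring
    rw [e]
    exact h)
  rw [← h3]
  exact (((Int.mod_modEq x s).add_right _)).symm

section

variable {D : ChevalleyDatum} {l s m : ℕ} (hs : s.Prime) (Nf : Fin m → Fin l → ℤ)

theorem dg_eq (b : ℕ) : dg s (List.ofFn fun j => List.ofFn (Nf j)) (crd D l b) =
    List.ofFn fun j => ((∑ i, Nf j i * vec D l b i) % (s : ℤ)).toNat := by
  unfold dg
  rw [List.map_ofFn]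
  congr 1
  funext j
  rw [Function.comp_apply, crd_eq, dotL_eq]

include hs in
/-- a line, with respect to its representative -/
theorem line_of {N : List (List ℤ)} (hN : N = List.ofFn fun j => List.ofFn (Nf j))
    {memF : List (ℕ × List ℤ) → ℕ → List ℤ → Bool} {T : List (List ℕ × List ℤ)}
    (hT : T = (List.range D.nroots).map fun b => (dg s N (crd D l b), crd D l b)) {L : LD}
    (hL : chkLine D s memF T L = true) (hmu : ∀ u ∈ L.mu, u.length = l) {ψ : Fin m → ℤ} {u v : ℤ}
    (huv : (s : ℤ) ∣ u * v - 1) {Pf : Fin m → ℕ} (hP : L.P = List.ofFn Pf) (hψ : ∀ j, (s : ℤ) ∣ (Pf j : ℤ) - u * ψ j) :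
    ∃ (n : ℕ) (μ : Fin n → Fin l → ℤ),
    (∀ a < D.nroots, OnL s (fun j b => ∑ i, Nf j i * vec D l b i) ψ a → ∀ i, ∑ j, μ i j * vec D l a j = 0) ∧
    ∀ c < D.nroots, Gd D l s (fun j b => ∑ i, Nf j i * vec D l b i) ψ μ c ∨
      ∃ a b, Gd D l s (fun j b => ∑ i, Nf j i * vec D l b i) ψ μ a ∧
        Gd D l s (fun j b => ∑ i, Nf j i * vec D l b i) ψ μ b ∧ Stp D a b c := by
  have hs0 : (0 : ℤ) < s := by exact_mod_cast hs.pos
  set e : Fin m → ℕ → ℤ := fun j b => ∑ i, Nf j i * vec D l b i with he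
  set dd : ℕ → List ℕ := fun b => List.ofFn fun j => (e j b % (s : ℤ)).toNat with hdd
  have hTb : T = (List.range D.nroots).map fun b => (dd b, crd D l b) := by
    rw [hT, hN]
    refine List.map_congr_left fun b _ => ?_
    rw [dg_eq]
  -- the functionals
  let μ : Fin L.mu.length → Fin l → ℤ := fun i j => (L.mu[i]).getD j 0
  have hμ : ∀ (i : Fin L.mu.length) b, dotL (L.mu[i]) (crd D l b) = ∑ j, μ i j * vec D l b j := by
    intro i b
    have h1 : L.mu[i] = List.ofFn (μ i) := by
      apply List.ext_getElem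
      · rw [List.length_ofFn]
        exact hmu _ (List.getElem_mem _)
      · intro j h1 h2
        rw [List.getElem_ofFn]
        show _ = (L.mu[i]).getD j 0
        rw [List.getD_eq_getElem _ _ h1]
    rw [h1, crd_eq, dotL_eq]
  have hmuV : ∀ a b, (∀ i, ∑ j, μ i j * vec D l a j = ∑ j, μ i j * vec D l b j) →
      muV L.mu (crd D l a) = muV L.mu (crd D l b) := by
    intro a b h
    unfold muV
    apply List.ext_getElem
    · simp
    · intro i h1 h2
      rw [List.getElem_map, List.getElem_map]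
      rw [List.length_map] at h1
      have h3 := h ⟨i, h1⟩
      rw [← hμ ⟨i, h1⟩ a, ← hμ ⟨i, h1⟩ b] at h3
      exact h3
  unfold chkLine at hL
  simp only [Bool.and_eq_true, List.all_eq_true] at hL
  obtain ⟨hL1, hL2⟩ := hL
  set K2 : List (ℕ × List ℤ) := (T.map fun y => (y.1, muV L.mu y.2)).map fun y => (cdL s y.1, y.2) with hK2
  have hmem : ∀ b < D.nroots, memF K2 (cdL s (dd b)) (muV L.mu (crd D l b)) = true := by
    intro b hb
    refine hL1 (cdL s (dd b), muV L.mu (crd D l b)) ?_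
    rw [hK2, List.map_map, hTb, List.map_map]
    exact List.mem_map.2 ⟨b, List.mem_range.2 hb, rfl⟩
  have hall : ∀ b < D.nroots,
      (Nat.testBit L.G b = true → chkG s (memF K2) L.P (dd b) (muV L.mu (crd D l b)) = true) ∧
      (onB s L.P (dd b) = true → ∀ z ∈ muV L.mu (crd D l b), z = 0) ∧
      (Nat.testBit L.G b = false → ∃ t ∈ L.ct, t.1 = b ∧ Nat.testBit L.G t.2.1 = true ∧
        Nat.testBit L.G t.2.2 = true ∧ t.2.1 < D.nroots ∧ t.2.2 < D.nroots ∧ stpB D t.2.1 t.2.2 b = true) := by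
    intro b hb
    have h1 := hL2 ((dd b, muV L.mu (crd D l b)), b) (by
      rw [List.mem_zipIdx_iff_getElem?]
      show (List.map _ T)[b]? = some _
      rw [hTb]
      simp [hb])
    simp only [Bool.or_eq_true, Bool.not_eq_true', List.all_eq_true, List.any_eq_true, decide_eq_true_eq,
      Bool.and_eq_true, Nat.blt_eq] at h1
    obtain ⟨⟨h2, h3⟩, h4⟩ := h1
    refine ⟨fun h => ?_, fun h => ?_, fun h => ?_⟩
    · rcases h2 with h2 | h2
      · rw [h] at h2; exact absurd h2 (by decide)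
      · exact h2
    · rcases h3 with h3 | h3
      · rw [h] at h3; exact absurd h3 (by decide)
      · exact h3
    · rcases h4 with h4 | ⟨t, ht, ⟨⟨h5, h6, h7⟩, h8, h9⟩, h10⟩
      · rw [h] at h4; exact absurd h4 (by decide)
      · exact ⟨t, ht, Nat.eq_of_beq_eq_true h5, h6, h7, h8, h9, h10⟩
  -- on the line
  have hon : ∀ b, OnL s e ψ b → onB s L.P (dd b) = true := by
    rintro b ⟨c, hc⟩
    -- `e b = c v P`
    refine List.any_eq_true.2 ⟨((c * v) % (s : ℤ)).toNat, List.mem_range.2 ?_, ?_⟩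
    · have h1 := Int.emod_lt_of_pos (c * v) hs0
      have h2 := Int.emod_nonneg (c * v) hs0.ne'
      omega
    · have h3 : dd b = L.P.map fun p => (((c * v) % (s : ℤ)).toNat * p) % s := by
        rw [hP, List.map_ofFn, hdd]
        beta_reduce
        congr 1
        funext j
        have h4 := digit_eq hs.pos (x := 0) (y := e j b) (c := ((c * v) % (s : ℤ)).toNat) (p := Pf j) (by
          have h2 := Int.emod_nonneg (c * v) hs0.ne'
          rw [Int.toNat_of_nonneg h2]
          obtain ⟨a1, h5⟩ := hc j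
          obtain ⟨a2, h6⟩ := hψ j
          obtain ⟨a3, h7⟩ := huv
          have h8 := Int.mul_ediv_add_emod (c * v) s
          generalize (c * v) % (s : ℤ) = t at h8 ⊢
          generalize (c * v) / (s : ℤ) = t' at h8
          -- `e = s a1 + c ψ`, `P = s a2 + u ψ`, `u v = s a3 + 1`, `t = c v - s t'`
          refine ⟨a1 - c * v * a2 - c * ψ j * a3 + t' * (Pf j : ℤ), ?_⟩
          linear_combination h5 - (c * v) * h6 - (c * ψ j) * h7 - (Pf j : ℤ) * h8)
        rw [h4]
        show _ = ((c * v) % (s : ℤ)).toNat * Pf j % s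
        congr 1
        simp
      rw [h3]
      exact Nat.beq_refl _
  have hgood : ∀ b < D.nroots, Nat.testBit L.G b = true → Gd D l s e ψ μ b := by
    intro b hb hG
    have h1 := (hall b hb).1 hG
    unfold chkG at h1
    rw [Bool.and_eq_true, Bool.not_eq_true', List.any_eq_true] at h1
    obtain ⟨h2, c, -, h3⟩ := h1
    rw [Bool.not_eq_true'] at h3
    refine ⟨hb, fun h => ?_, (c : ℤ) * u, fun d' hd' hμd hdiv => ?_⟩
    · rw [hon b h] at h2
      exact absurd h2 (by decide)
    · have h4 : dd d' = shL s c L.P (dd b) := by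
        unfold shL
        rw [hP, hdd]
        beta_reduce
        rw [zipWith_ofFn]
        congr 1
        funext j
        refine digit_eq hs.pos ?_
        obtain ⟨a1, h5⟩ := hdiv j
        obtain ⟨a2, h6⟩ := hψ j
        refine ⟨a1 - c * a2, ?_⟩
        linear_combination h5 - (c : ℤ) * h6
      rw [← h4, ← hmuV _ _ hμd, hmem d' hd'] at h3
      exact absurd h3 (by decide)
  refine ⟨_, μ, fun a ha hona i => ?_, fun c hc => ?_⟩
  · rw [← hμ]
    exact (hall a ha).2.1 (hon a hona) _ (List.mem_map.2 ⟨_, List.getElem_mem _, rfl⟩)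
  · by_cases hG : Nat.testBit L.G c = true
    · exact Or.inl (hgood c hc hG)
    · rw [Bool.not_eq_true] at hG
      obtain ⟨t, -, -, h5, h6, h7, h8, h9⟩ := (hall c hc).2.2 hG
      refine Or.inr ⟨t.2.1, t.2.2, hgood _ h7 h5, hgood _ h8 h6, ?_⟩
      unfold stpB at h9
      simp only [Bool.and_eq_true, Bool.not_eq_true', Bool.or_eq_true, decide_eq_true_eq] at h9
      obtain ⟨⟨h10, h11⟩, h12⟩ := h9
      refine ⟨fun h => ?_, fun h => ?_, h12⟩
      · rw [h, Nat.beq_refl] at h10; exact absurd h10 (by decide)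
      · rw [h, Nat.beq_refl] at h11; exact absurd h11 (by decide)

include hs in
/-- **`ChkF` from the checks of all lines.** -/
theorem chkF_of {N : List (List ℤ)} (hN : N = List.ofFn fun j => List.ofFn (Nf j))
    (memF : List (ℕ × List ℤ) → ℕ → List ℤ → Bool) {T : List (List ℕ × List ℤ)}
    (hT : T = (List.range D.nroots).map fun b => (dg s N (crd D l b), crd D l b)) {LL : List LD}
    (hLL : LL.map LD.P = reps s m) (hmu : (LL.all fun L => L.mu.all fun u => Nat.beq u.length l) = true)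
    (hL : ∀ L ∈ LL, chkLine D s memF T L = true) : ChkF D l s (fun j b => ∑ i, Nf j i * vec D l b i) := by
  refine ⟨fun ψ hψ => ?_⟩
  obtain ⟨j, hj⟩ := hψ
  obtain ⟨P, hP, u, v, huv, h2⟩ := exists_rep hs (List.ofFn ψ) ⟨ψ j, List.mem_ofFn.2 ⟨j, rfl⟩, hj⟩
  rw [List.length_ofFn, ← hLL] at hP
  obtain ⟨L, hL1, hL2⟩ := List.mem_map.1 hP
  have hlen : P.length = m := by
    rw [h2.length_eq, List.length_ofFn]
  refine line_of hs Nf hN hT (hL L hL1) (fun w hw => ?_) huv (Pf := fun j => P[(j : ℕ)]'(by rw [hlen]; exact j.2)) ?_ ?_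
  · have h3 := List.all_eq_true.1 (List.all_eq_true.1 hmu L hL1) w hw
    exact Nat.eq_of_beq_eq_true h3
  · rw [hL2]
    apply List.ext_getElem
    · rw [List.length_ofFn, hlen]
    · intro i h3 h4
      rw [List.getElem_ofFn]
  · intro j
    have h3 := List.forall₂_iff_get.1 h2
    have h4 := h3.2 j (by rw [hlen]; exact j.2) (by rw [List.length_ofFn]; exact j.2)
    simpa using h4

end

/-- membership, small tables -/
def memA (K : List (ℕ × List ℤ)) (c : ℕ) (u : List ℤ) : Bool := K.any fun y => Nat.beq y.1 c && decide (y.2 = u)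

/-- membership by a mask -/
def memB (B : ℕ) (_ : List (ℕ × List ℤ)) (c : ℕ) (_ : List ℤ) : Bool := Nat.testBit B c

end Cfsg.Agent.H408.RM
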